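import Mathlib
import Cfsg.Agent.H63.AnDefs2

/-!
# Piece E3P of S3124
-/

set_option autoImplicit false

namespace Cfsg.Agent.H15.AnE3p

open Cfsg.Agent.H63.AN Subgroup
open Equiv (swap Perm)
open Equiv.Perm (sign viaEmbeddingHom)
open scoped commutatorElement

variable {α β : Type} [Fintype α] [DecidableEq α] [Fintype β] [DecidableEq β]

theorem card_supp (f : β ↪ α) {q : Perm α} {q0 : Perm β} (h : ∀ i, q (f i) = f (q0 i)) :
    q.support.card = q0.support.card + (q.support \ Finset.univ.map f).card := by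
  rw [← Finset.card_map f, ← Finset.card_inter_add_card_sdiff q.support (Finset.univ.map f)]
  congr 2
  ext x
  simp only [Finset.mem_inter, Equiv.Perm.mem_support, Finset.mem_map, Finset.mem_univ, true_and]
  constructor
  · rintro ⟨h1, i, rfl⟩
    exact ⟨i, fun e => h1 (by rw [h, e]), rfl⟩
  · rintro ⟨i, h1, rfl⟩
    exact ⟨fun e => h1 (f.injective (by rw [← h, e])), i, rfl⟩

omit [DecidableEq α] [DecidableEq β] [Fintype α] [Fintype β] in
theorem not_range (f : β ↪ α) {p : Perm α} {p0 : Perm β} (h : ∀ i, p (f i) = f (p0 i)) {x : α}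
    (hx : x ∉ Set.range f) : p x ∉ Set.range f := by
  rintro ⟨i, e⟩
  refine hx ⟨p0⁻¹ i, p.injective ?_⟩
  rw [h, ← e]; simp

theorem sign_via (f : β ↪ α) (a : Perm β) : sign (viaEmbeddingHom f a) = sign a := by
  rw [Equiv.Perm.viaEmbeddingHom_apply]
  unfold Equiv.Perm.viaEmbedding
  convert Equiv.Perm.sign_extendDomain a _

theorem map_CA (f : β ↪ α) {p : Perm α} {p0 : Perm β} (h : ∀ i, p (f i) = f (p0 i)) :
    (CA p0).map (viaEmbeddingHom f) ≤ CA p := by
  rintro _ ⟨a, ⟨h1, h2⟩, rfl⟩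
  refine ⟨mem_centralizer_singleton_iff.2 ?_, ?_⟩
  · have c := mem_centralizer_singleton_iff.1 h1
    ext x
    simp only [Equiv.Perm.mul_apply, Equiv.Perm.viaEmbeddingHom_apply]
    by_cases hx : x ∈ Set.range f
    · obtain ⟨i, rfl⟩ := hx
      rw [h, Equiv.Perm.viaEmbedding_apply, Equiv.Perm.viaEmbedding_apply, h,
        ← Equiv.Perm.mul_apply, c, Equiv.Perm.mul_apply]
    · rw [Equiv.Perm.viaEmbedding_apply_of_notMem _ _ _ hx,
        Equiv.Perm.viaEmbedding_apply_of_notMem _ _ _ (not_range f h hx)]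
  · exact Equiv.Perm.mem_alternatingGroup.2
      ((sign_via f a).trans (Equiv.Perm.mem_alternatingGroup.1 h2))

theorem lift (f : β ↪ α) {p : Perm α} {p0 : Perm β} (h : ∀ i, p (f i) = f (p0 i))
    (h0 : ∃ r ∈ ⁅CA p0, CA p0⁆, r ≠ 1 ∧ r * r = 1 ∧ (r * p0).support.card = p0.support.card) :
    ∃ r ∈ ⁅CA p, CA p⁆, r ≠ 1 ∧ r * r = 1 ∧ (r * p).support.card = p.support.card := by
  obtain ⟨r, hr, r1, rr, hc⟩ := h0
  refine ⟨viaEmbeddingHom f r, ?_, fun e => r1 ?_, by rw [← map_mul, rr, map_one], ?_⟩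
  · refine commutator_mono (map_CA f h) (map_CA f h) ?_
    rw [← map_commutator]
    exact mem_map_of_mem _ hr
  · exact Equiv.Perm.viaEmbeddingHom_injective f (e.trans (map_one _).symm)
  · rw [card_supp f h, card_supp f (q0 := r * p0) (fun i => by
      rw [Equiv.Perm.mul_apply, h, Equiv.Perm.viaEmbeddingHom_apply, Equiv.Perm.viaEmbedding_apply,
        Equiv.Perm.mul_apply]), hc]
    congr 2
    ext x
    simp only [Finset.mem_sdiff, Equiv.Perm.mem_support, Finset.mem_map, Finset.mem_univ, true_and]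
    refine and_congr_left fun hx => ?_
    rw [Equiv.Perm.mul_apply, Equiv.Perm.viaEmbeddingHom_apply,
      Equiv.Perm.viaEmbedding_apply_of_notMem _ _ _ (not_range f h hx)]

theorem mem_CA {p a : Perm β} (h1 : a * p = p * a) (h2 : sign a = 1) : a ∈ CA p :=
  ⟨mem_centralizer_singleton_iff.2 h1, Equiv.Perm.mem_alternatingGroup.2 h2⟩

def p8 : Perm (Fin 8) := swap 0 1 * swap 2 3 * swap 4 5 * swap 6 7
def p10 : Perm (Fin 10) := swap 0 1 * swap 2 3 * swap 4 5

theorem case8 : ∃ r ∈ ⁅CA p8, CA p8⁆, r ≠ 1 ∧ r * r = 1 ∧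
    (r * p8).support.card = p8.support.card := by
  refine ⟨⁅swap 0 2 * swap 1 3, swap 0 4 * swap 1 5 * (swap 2 6 * swap 3 7)⁆,
    commutator_mem_commutator (mem_CA ?_ ?_) (mem_CA ?_ ?_), ?_, ?_, ?_⟩
  · decide +kernel
  · simp
  · decide +kernel
  · simp
  · decide +kernel
  · decide +kernel
  · decide +kernel

theorem case10 : ∃ r ∈ ⁅CA p10, CA p10⁆, r ≠ 1 ∧ r * r = 1 ∧
    (r * p10).support.card = p10.support.card := by
  refine ⟨⁅swap 0 2 * swap 1 3, swap 0 1 * swap 4 5⁆ * ⁅swap 6 8 * swap 7 9, swap 0 1 * swap 6 7⁆,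
    mul_mem (commutator_mem_commutator (mem_CA ?_ ?_) (mem_CA ?_ ?_))
      (commutator_mem_commutator (mem_CA ?_ ?_) (mem_CA ?_ ?_)), ?_, ?_, ?_⟩
  · decide +kernel
  · simp
  · decide +kernel
  · simp
  · decide +kernel
  · simp
  · decide +kernel
  · simp
  · decide +kernel
  · decide +kernel
  · decide +kernel

omit [Fintype α] in
theorem exists_not_mem {s : Finset α} (l : List α) (h : l.length < s.card) : ∃ x ∈ s, x ∉ l := by
  by_contra hn
  push Not at hn
  have := (Finset.card_le_card (t := l.toFinset) fun x hx => List.mem_toFinset.2 (hn x hx)).trans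
    (List.toFinset_card_le l)
  omega

omit [Fintype α] [DecidableEq α] in
theorem step {p : Perm α} (pp : p * p = 1) {l : List α} (nd : l.Nodup) (cl : ∀ y ∈ l, p y ∈ l)
    {x : α} (hx : p x ≠ x) (xl : x ∉ l) :
    (x :: p x :: l).Nodup ∧ ∀ y ∈ x :: p x :: l, p y ∈ x :: p x :: l := by
  have e : ∀ y, p (p y) = y := fun y => by rw [← Equiv.Perm.mul_apply, pp]; rfl
  refine ⟨List.nodup_cons.2 ⟨?_, List.nodup_cons.2 ⟨fun h => xl (e x ▸ cl _ h), nd⟩⟩, ?_⟩
  · simp [hx.symm, xl]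
  · intro y hy
    simp only [List.mem_cons] at hy ⊢
    rcases hy with rfl | rfl | hy
    · simp
    · simp [e]
    · exact Or.inr (Or.inr (cl y hy))

theorem e3p : E3pStmt := by
  intro α _ _ h10 p pp h6
  have e : ∀ y, p (p y) = y := fun y => by rw [← Equiv.Perm.mul_apply, pp]; rfl
  obtain ⟨c, hc, c0⟩ := exists_not_mem (s := p.support) [] (by rw [List.length_nil]; omega)
  obtain ⟨n1, k1⟩ := step pp List.nodup_nil (by simp) (Equiv.Perm.mem_support.1 hc) c0
  obtain ⟨b, hb, b0⟩ := exists_not_mem (s := p.support) [c, p c] (by simp; omega)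
  obtain ⟨n2, k2⟩ := step pp n1 k1 (Equiv.Perm.mem_support.1 hb) b0
  obtain ⟨a, ha, a0⟩ := exists_not_mem (s := p.support) [b, p b, c, p c] (by simp; omega)
  obtain ⟨n3, k3⟩ := step pp n2 k2 (Equiv.Perm.mem_support.1 ha) a0
  by_cases hd : ∃ d, p d ≠ d ∧ d ∉ [a, p a, b, p b, c, p c]
  · obtain ⟨d, hd, d0⟩ := hd
    obtain ⟨n4, -⟩ := step pp n3 k3 hd d0
    refine lift (β := Fin 8) ⟨_, List.nodup_iff_injective_get.1 n4⟩ (fun i => ?_) case8
    fin_cases i
    exacts [rfl, e d, rfl, e a, rfl, e b, rfl, e c]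
  · push Not at hd
    have fx : ∀ x, x ∉ [a, p a, b, p b, c, p c] → p x = x := fun x hx => by
      by_contra h; exact hx (hd x h)
    obtain ⟨w, -, w0⟩ := exists_not_mem (s := Finset.univ) [a, p a, b, p b, c, p c]
      (by simp; omega)
    obtain ⟨x, -, x0⟩ := exists_not_mem (s := Finset.univ) [w, a, p a, b, p b, c, p c]
      (by simp; omega)
    obtain ⟨y, -, y0⟩ := exists_not_mem (s := Finset.univ) [x, w, a, p a, b, p b, c, p c]
      (by simp; omega)
    obtain ⟨z, -, z0⟩ := exists_not_mem (s := Finset.univ) [y, x, w, a, p a, b, p b, c, p c]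
      (by simp; omega)
    have n : [z, y, x, w, a, p a, b, p b, c, p c].Nodup :=
      List.nodup_cons.2 ⟨z0, List.nodup_cons.2 ⟨y0, List.nodup_cons.2 ⟨x0,
        List.nodup_cons.2 ⟨w0, n3⟩⟩⟩⟩
    have n' : [a, p a, b, p b, c, p c, z, y, x, w].Nodup :=
      (List.perm_append_comm (l₁ := [z, y, x, w]) (l₂ := [a, p a, b, p b, c, p c])).nodup_iff.1 n
    refine lift (β := Fin 10) ⟨_, List.nodup_iff_injective_get.1 n'⟩ (fun i => ?_) case10
    have fz := fx z fun h =>
      z0 (List.mem_cons_of_mem _ (List.mem_cons_of_mem _ (List.mem_cons_of_mem _ h)))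
    have fy := fx y fun h => y0 (List.mem_cons_of_mem _ (List.mem_cons_of_mem _ h))
    have fx' := fx x fun h => x0 (List.mem_cons_of_mem _ h)
    fin_cases i
    exacts [rfl, e a, rfl, e b, rfl, e c, fz, fy, fx', fx w w0]

end Cfsg.Agent.H15.AnE3p
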