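import Mathlib
import Cfsg.Agent.H11.Irr
import Cfsg.Agent.H14.InduceChar
import Cfsg.Agent.S0198

/-!
# Exceptional characters for a T.I. subset
-/

set_option autoImplicit false

namespace Cfsg.Agent.H15

open Cfsg

variable {G : Type*} [Group G] [Fintype G]

/-- Exceptional characters: a family of distinct irreducible characters of `N` of equal degree that
agree outside the T.I. subset `T`. -/
theorem exists_exceptional (N : Subgroup G) (T : Set G)
    (hTI : ∀ g : G, g ∉ N → ∀ t ∈ T, g * t * g⁻¹ ∈ T → t = 1) {ι : Type*} [Finite ι]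
    (χ : ι → (N → ℂ)) (hirr : ∀ i, IsIrrCharacter N (χ i)) (hinj : Function.Injective χ)
    (hvan : ∀ i j, ∀ x : N, (x : G) ∉ T → χ i x = χ j x) (hdeg : ∀ i j, χ i 1 = χ j 1) :
    ∃ ε : ℂ, (ε = 1 ∨ ε = -1) ∧ ∃ θ : ι → (G → ℂ), (∀ i, IsIrrCharacter G (θ i)) ∧
      Function.Injective θ ∧ ∀ i j, indFun N (χ i - χ j) = ε • (θ i - θ j) := by
  classical
  rcases isEmpty_or_nonempty ι with hι | ⟨⟨j₀⟩⟩
  · exact ⟨1, Or.inl rfl, fun i => isEmptyElim i, fun i => isEmptyElim i, fun i => isEmptyElim i,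
      fun i => isEmptyElim i⟩
  obtain ⟨n, ⟨e⟩⟩ := Finite.exists_equiv_fin ι
  have hcf : ∀ i, IsClassFunction N (χ i - χ j₀) := fun i =>
    H11.isClassFunction_sub (H11.isClassFunction_of_irr (hirr i))
      (H11.isClassFunction_of_irr (hirr j₀))
  have hz : ∀ i, ∀ x : N, (x : G) ∉ T → (χ i - χ j₀) x = 0 := fun i x hx => by
    simp [hvan i j₀ x hx]
  have h1 : ∀ i, (χ i - χ j₀) 1 = 0 := fun i => by simp [hdeg i j₀]
  obtain ⟨ε, hε, μ, hμ, hμinj, hτ⟩ := Cfsg.Agent.S0198.result n (e j₀)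
    (fun i => indFun N (χ (e.symm i) - χ j₀)) (by simp [H14.indFun_zero])
    (fun i => H14.IsGeneralizedCharacter.indFun N
      (H11.isGen_sub (H11.isGen_of_irr (hirr _)) (H11.isGen_of_irr (hirr j₀))))
    (fun i => by rw [H14.indFun_one, h1, mul_zero])
    (fun i j hi hj => by
      have hi' : e.symm i ≠ j₀ := fun h => hi (by rw [← h]; simp)
      have hj' : e.symm j ≠ j₀ := fun h => hj (by rw [← h]; simp)
      rw [H14.classInner_indFun_of_ti' N T hTI (hcf _) (hz _) (hz _) (h1 _)]
      rw [H11.classInner_sub_left, H11.classInner_sub_right, H11.classInner_sub_right,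
        H11.classInner_irr_self (hirr j₀),
        H11.classInner_irr_of_ne (hirr _) (hirr j₀) (hinj.ne hi'),
        H11.classInner_irr_of_ne (hirr j₀) (hirr _) (hinj.ne hj').symm]
      split_ifs with h
      · subst h
        rw [H11.classInner_irr_self (hirr _)]; norm_num
      · rw [H11.classInner_irr_of_ne (hirr _) (hirr _) (hinj.ne (e.symm.injective.ne h))]
        norm_num)
  refine ⟨ε, hε, fun i => μ (e i), fun i => hμ _, hμinj.comp e.injective, fun i j => ?_⟩
  have hi := hτ (e i)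
  have hj := hτ (e j)
  simp only [Equiv.symm_apply_apply] at hi hj
  have : χ i - χ j = (χ i - χ j₀) - (χ j - χ j₀) := by abel
  rw [this, H14.indFun_sub, hi, hj, ← smul_sub]
  congr 1
  abel

end Cfsg.Agent.H15
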