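import Mathlib
import Cfsg.Agent.H17.LPDefs
import Cfsg.Agent.H26.SLBasic

/-! Project LP: the first cohomology of `L₃(2)` on the matrices vanishes. -/

set_option autoImplicit false

namespace Cfsg.Agent.H15.LpExt

open Cfsg.Agent.H17.LP Matrix

def a : SL3 := ⟨!![1, 1, 0; 0, 1, 0; 0, 0, 1], by decide⟩
def b : SL3 := ⟨!![0, 1, 0; 0, 0, 1; 1, 0, 0], by decide⟩
def a2 : SL3 := ⟨!![1, 0, 0; 0, 1, 1; 0, 0, 1], by decide⟩
def a3 : SL3 := ⟨!![1, 0, 0; 0, 1, 0; 1, 0, 1], by decide⟩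
def g1 : SL3 := ⟨!![0, 1, 1; 0, 0, 1; 1, 0, 0], by decide⟩
def g2 : SL3 := ⟨!![1, 0, 1; 1, 0, 0; 0, 1, 1], by decide⟩
def g3 : SL3 := ⟨!![1, 1, 1; 0, 1, 1; 1, 0, 1], by decide⟩
def g4 : SL3 := ⟨!![1, 1, 0; 1, 0, 1; 1, 1, 1], by decide⟩

theorem co : (1 : SL3).1 = 1 := rfl
theorem cm (g h : SL3) : (g * h).1 = g.1 * h.1 := rfl

theorem rels : a * a = 1 ∧ b * b * b = 1 ∧ g1 = a * b ∧ g2 = g1 * g1 ∧ g3 = g2 * g1 ∧ g4 = g2 * g2 ∧
    g4 * g3 = 1 ∧ a2 = b * b * a * b ∧ a3 = b * a * b * b := by decide +kernel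

theorem fin : ∀ x : M3, x * a.1 + a.1 * x = 0 →
    ((x * b.1 * g1.1 + g1.1 * (x * b.1)) * g2.1 + g2.1 * (x * b.1 * g1.1 + g1.1 * (x * b.1))) * g3.1 +
      g4.1 * ((x * b.1 * g1.1 + g1.1 * (x * b.1)) * g1.1 + g2.1 * (x * b.1)) = 0 →
    ∃ m ∈ [0, b.1, b.1 * b.1, b.1 + b.1 * b.1], x = m * a.1 + a.1 * m ∧ 0 = m * b.1 + b.1 * m := by
  decide +kernel

theorem tv : ∀ (i j : Fin 3) (c : ZMod 2), i ≠ j →
    ∃ g ∈ ([1, a, a2, a3, a * a2 * (a * a2), a2 * a3 * (a2 * a3), a3 * a * (a3 * a)] : List SL3),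
      g.1 = (1 : M3) + single i j c := by
  decide +kernel

theorem der (d : SL3 → M3) (hd : ∀ g h, d (g * h) = d g * h.1 + g.1 * d h) (hb : d b = 0) :
    ∃ m : M3, ∀ g, d g = m * g.1 + g.1 * m := by
  obtain ⟨r1, -, r3, r4, r5, r6, r7, r8, r9⟩ := rels
  have d1 : d 1 = 0 := by
    have := hd 1 1
    rw [mul_one, co, mul_one, one_mul, CharTwo.add_self_eq_zero] at this
    exact this
  have e1 : d g1 = d a * b.1 := by rw [r3, hd, hb, mul_zero, add_zero]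
  have e2 := congrArg d r4
  have e3 := congrArg d r5
  have e4 := congrArg d r6
  have e7 := congrArg d r7
  rw [hd] at e2 e3 e4 e7
  rw [e4, e3, e2, e1, d1] at e7
  obtain ⟨m, -, ha, hb'⟩ := fin (d a) (by rw [← hd, r1, d1]) e7
  rw [← hb] at hb'
  have mul : ∀ g h : SL3, d g = m * g.1 + g.1 * m → d h = m * h.1 + h.1 * m →
      d (g * h) = m * (g * h).1 + (g * h).1 * m := fun g h h1 h2 => by
    rw [hd, h1, h2, cm, add_mul, mul_add, add_assoc, ← add_assoc (g.1 * m * h.1),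
      mul_assoc g.1 m, CharTwo.add_self_eq_zero, zero_add, mul_assoc, mul_assoc]
  have one : d 1 = m * (1 : SL3).1 + (1 : SL3).1 * m := by
    rw [d1, co, mul_one, one_mul, CharTwo.add_self_eq_zero]
  have h2 : d a2 = m * a2.1 + a2.1 * m := r8 ▸ mul _ _ (mul _ _ (mul _ _ hb' hb') ha) hb'
  have h3 : d a3 = m * a3.1 + a3.1 * m := r9 ▸ mul _ _ (mul _ _ (mul _ _ hb' ha) hb') hb'
  refine ⟨m, H26.sl_transvection_induction _ one (fun i j h c => ?_) mul⟩
  obtain ⟨g, hg, e⟩ := tv i j c h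
  rw [show SpecialLinearGroup.transvection h c = g from Subtype.ext e.symm]
  simp only [List.mem_cons, List.not_mem_nil, or_false] at hg
  rcases hg with rfl | rfl | rfl | rfl | rfl | rfl | rfl
  exacts [one, ha, h2, h3, mul _ _ (mul _ _ ha h2) (mul _ _ ha h2),
    mul _ _ (mul _ _ h2 h3) (mul _ _ h2 h3), mul _ _ (mul _ _ h3 ha) (mul _ _ h3 ha)]

theorem ext : ExtStmt := by
  intro c hc
  have iv : ∀ g : SL3, (g⁻¹).1 * g.1 = 1 := fun g => congrArg Subtype.val (inv_mul_cancel g)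
  have iv' : ∀ g : SL3, g.1 * (g⁻¹).1 = 1 := fun g => congrArg Subtype.val (mul_inv_cancel g)
  have hd : ∀ g h : SL3, c (g * h) * (g * h).1 = c g * g.1 * h.1 + g.1 * (c h * h.1) := fun g h => by
    rw [hc, cm, add_mul, mul_assoc (g.1 * c h), ← mul_assoc (g⁻¹).1, iv,
      one_mul, mul_assoc, mul_assoc]
  have c1 : c 1 = 0 := by
    have := hd 1 1
    rwa [mul_one, co, mul_one, mul_one, one_mul,
      CharTwo.add_self_eq_zero] at this
  have b3 : b.1 * (b.1 * b.1) = 1 := by decide +kernel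
  have r3 := hd (b * b) b
  rw [rels.2.1, c1, zero_mul, hd, cm] at r3
  generalize hy : c b * b.1 = y at r3
  obtain ⟨m, hm⟩ := der (fun g => c g * g.1 + (b.1 * y * b.1 * g.1 + g.1 * (b.1 * y * b.1)))
    (fun g h => by
      rw [hd, cm]
      have := CharTwo.add_self_eq_zero (g.1 * (b.1 * y * b.1) * h.1)
      linear_combination (norm := noncomm_ring) -this)
    (by
      have := congrArg (· * b.1) r3
      simp only [add_mul, mul_assoc, b3, mul_one, zero_mul] at this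
      simp only [hy, mul_assoc]
      rw [this, add_assoc])
  refine ⟨m + b.1 * y * b.1, fun g => ?_⟩
  have h1 := congrArg (· * (g⁻¹).1) (hm g)
  simp only [add_mul, mul_assoc _ g.1, iv', mul_one] at h1
  rw [← CharTwo.eq_add_iff_add_eq.1 h1.symm]
  noncomm_ring

end Cfsg.Agent.H15.LpExt
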